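import Cfsg.Agent.Lib.Helper27.FusCentric

/-!
Two maps agreeing on a centric subgroup differ by an element of its centre (S5095).
-/

set_option autoImplicit false

namespace Cfsg
namespace FusionSystem

open Agent.Fus Cfsg.Agent.Lib.Helper27.Fus

variable {Ω : Type*} [Group Ω] {S : Subgroup Ω}

theorem exists_center_of_agree (F : FusionSystem S) [Finite S] {p : ℕ} [Fact p.Prime] (hS : IsPGroup p S)
    (hF : F.IsSaturated p) {P : Subgroup Ω} {φ : P →* Ω} (hφ : φ ∈ F.Hom P) :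
    ∀ (n : ℕ) (Q : Subgroup Ω), Nat.card P - Nat.card Q = n → Q ≤ P → F.IsCentric Q →
      ∀ φ' : P →* Ω, φ' ∈ F.Hom P → (∀ x : P, (x : Ω) ∈ Q → φ x = φ' x) →
      ∃ z : P, (z : Ω) ∈ Q ∧ (z : Ω) ∈ Subgroup.centralizer (Q : Set Ω) ∧ ∀ y : P, φ' y = φ (z * y * z⁻¹) := by
  have hPS : P ≤ S := (F.le_of_mem hφ).1
  have hfP : Finite P := finite_of_le hPS
  have hPp : IsPGroup p P := isPGroup_of_le hS hPS
  intro n
  induction n using Nat.strong_induction_on with
  | _ n ih =>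
    intro Q hn hQP hQ φ' hφ' h
    by_cases hQeq : Q = P
    · refine ⟨1, Q.one_mem, Subgroup.one_mem _, fun y => ?_⟩
      rw [one_mul, inv_one, mul_one]
      exact (h y (hQeq ▸ y.2)).symm
    · have hlt : Q < P := lt_of_le_of_ne hQP hQeq
      have hlt1 : Q < normalizerIn P Q := lt_normalizerIn hPp hlt
      have hle1 : normalizerIn P Q ≤ P := normalizerIn_le
      have hn1 : ∀ g ∈ normalizerIn P Q, ∀ x ∈ Q, g * x * g⁻¹ ∈ Q := fun g hg x hx =>
        conj_mem_of_normalizer (mem_normalizerIn.1 hg).2 hx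
      obtain ⟨z₁, hz₁Q, hz₁⟩ := exists_conj_of_agree F hS hF hlt1.le hn1 hQ (F.restrict_mem hφ hle1)
        (F.restrict_mem hφ' hle1) (fun x hx => h _ hx)
      -- the element `z₁` as an element of `P`
      have hz₁' : ∀ x : P, (x : Ω) ∈ normalizerIn P Q →
          φ x = φ' (Subgroup.inclusion hle1 z₁ * x * (Subgroup.inclusion hle1 z₁)⁻¹) := by
        intro x hx
        exact hz₁ ⟨x, hx⟩
      set w : P := Subgroup.inclusion hle1 z₁ with hw
      have hwQ : (w : Ω) ∈ Q := hz₁Q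
      have hwc : ∀ x : P, (x : Ω) ∈ Q → w * x * w⁻¹ = x := by
        intro x hx
        have h1 := hz₁' x (hlt1.le hx)
        have h2 : ((w * x * w⁻¹ : P) : Ω) ∈ Q := Q.mul_mem (Q.mul_mem hwQ hx) (Q.inv_mem hwQ)
        rw [← h _ h2] at h1
        exact (F.injective_of_mem hφ h1).symm
      -- `φ'' = φ' ∘ c_w`
      have hφ'' : φ'.comp (MulAut.conj w).toMonoidHom ∈ F.Hom P := by
        have hwP : ∀ x ∈ P, (w : Ω) * x * (w : Ω)⁻¹ ∈ P :=
          fun x hx => P.mul_mem (P.mul_mem w.2 hx) (P.inv_mem w.2)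
        have h1 : F.IsMor (conjMap (P := P) (Q := P) (w : Ω) hwP) := F.isMor_conjMap hPS (hPS w.2) _
        have h2 := F.comp_mem h1 hφ' (fun x => (conjMap (P := P) (Q := P) (w : Ω) hwP x).2)
        exact h2
      have hQ1c : F.IsCentric (normalizerIn P Q) := IsCentric.of_le hQ hlt1.le (hle1.trans hPS)
      have hcard : Nat.card P - Nat.card (normalizerIn P Q) < n := by
        have h1 := card_lt_of_lt (hle1.trans hPS) hlt1
        have h2 : Nat.card (normalizerIn P Q) ≤ Nat.card P := Subgroup.card_le_of_le hle1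
        omega
      obtain ⟨z₂, hz₂Q, hz₂c, hz₂⟩ := ih _ hcard (normalizerIn P Q) rfl hle1 hQ1c _ hφ''
        (fun x hx => hz₁' x hx)
      have hz₂c' : (z₂ : Ω) ∈ Subgroup.centralizer (Q : Set Ω) :=
        Subgroup.centralizer_le (by exact_mod_cast hlt1.le) hz₂c
      have hz₂Q' : (z₂ : Ω) ∈ Q :=
        IsCentric.centralizerIn_le hQ (Subgroup.mem_inf.2 ⟨hPS z₂.2, hz₂c'⟩)
      have hwc' : (w : Ω) ∈ Subgroup.centralizer (Q : Set Ω) := by
        rw [Subgroup.mem_centralizer_iff]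
        intro x hx
        have h1 := congrArg Subtype.val (hwc ⟨x, hQP hx⟩ hx)
        have h2 : (w : Ω) * x * (w : Ω)⁻¹ = x := h1
        calc x * (w : Ω) = (w : Ω) * x * (w : Ω)⁻¹ * w := by rw [h2]
          _ = w * x := by group
      refine ⟨z₂ * w⁻¹, Q.mul_mem hz₂Q' (Q.inv_mem hwQ),
        Subgroup.mul_mem _ hz₂c' (Subgroup.inv_mem _ hwc'), fun y => ?_⟩
      have h3 := hz₂ (w⁻¹ * y * w)
      have h4 : (φ'.comp (MulAut.conj w).toMonoidHom) (w⁻¹ * y * w) = φ' y := by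
        show φ' (w * (w⁻¹ * y * w) * w⁻¹) = φ' y
        congr 1
        group
      rw [h4] at h3
      rw [h3]
      congr 1
      group

end FusionSystem
end Cfsg
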