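import Mathlib

/-!
Commutativity of Sylow subgroups of alternating groups.
-/

set_option autoImplicit false

namespace Cfsg
namespace Agent
namespace Fus

/-- A `p`-group of permutations of fewer than `p²` points is commutative. -/
theorem comm_of_isPGroup_perm {α : Type*} [Finite α] {p : ℕ} [Fact p.Prime] (hα : Nat.card α < p ^ 2)
    (Q : Subgroup (Equiv.Perm α)) (hQ : IsPGroup p Q) (x y : Equiv.Perm α) (hx : x ∈ Q) (hy : y ∈ Q) :
    x * y = y * x := by
  have hp : p.Prime := Fact.out
  ext a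
  set St := MulAction.stabilizer Q a with hSt
  obtain ⟨m, hm⟩ := IsPGroup.iff_card.1 hQ
  have hd : St.index ∣ p ^ m := hm ▸ Subgroup.index_dvd_card St
  obtain ⟨j, -, hj⟩ := (Nat.dvd_prime_pow hp).1 hd
  have hlt : St.index < p ^ 2 := by
    rw [hSt, MulAction.index_stabilizer]
    exact lt_of_le_of_lt (Set.ncard_le_card _) hα
  have hj1 : j ≤ 1 := by
    rw [hj] at hlt
    have := (Nat.pow_lt_pow_iff_right hp.one_lt).1 hlt
    omega
  have hmem : ((⟨y, hy⟩ : Q) * ⟨x, hx⟩)⁻¹ * ((⟨x, hx⟩ : Q) * ⟨y, hy⟩) ∈ St := by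
    rcases Nat.eq_zero_or_pos j with rfl | hjpos
    · rw [pow_zero, Subgroup.index_eq_one] at hj
      rw [hj]; exact Subgroup.mem_top _
    · have hj' : j = 1 := by omega
      rw [hj', pow_one] at hj
      have hm0 : m ≠ 0 := by
        rintro rfl
        rw [pow_zero, Nat.dvd_one, hj] at hd
        exact hp.one_lt.ne' hd
      have hn : St.Normal := by
        apply Subgroup.normal_of_index_eq_minFac_card
        rw [hj, hm, Nat.pow_minFac hm0, hp.minFac_eq]
      have hc : Nat.card (Q ⧸ St) = p := by rw [← Subgroup.index_eq_card, hj]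
      have hcyc : IsCyclic (Q ⧸ St) := isCyclic_of_prime_card hc
      let _ : CommGroup (Q ⧸ St) := hcyc.commGroup
      apply QuotientGroup.eq.1
      rw [QuotientGroup.mk_mul, QuotientGroup.mk_mul, mul_comm]
  have h1 : (((⟨y, hy⟩ : Q) * ⟨x, hx⟩)⁻¹ * ((⟨x, hx⟩ : Q) * ⟨y, hy⟩)) • a = a := hmem
  have h2 : ((y * x)⁻¹ * (x * y)) a = a := h1
  have h3 := congrArg (y * x) h2
  rw [← Equiv.Perm.mul_apply, mul_inv_cancel_left] at h3
  exact h3

/-- The map `ℤˣ → Perm (Fin 2)` inverse to the sign. -/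
def signFix : ℤˣ →* Equiv.Perm (Fin 2) where
  toFun u := if u = 1 then 1 else Equiv.swap 0 1
  map_one' := by simp
  map_mul' := by decide

theorem sign_signFix (u : ℤˣ) : Equiv.Perm.sign (signFix u) = u := by
  revert u
  decide

/-- Embedding of a symmetric group in an alternating group with two more points. -/
def evenFix (α : Type*) [DecidableEq α] [Fintype α] : Equiv.Perm α →* Equiv.Perm (α ⊕ Fin 2) :=
  (Equiv.Perm.sumCongrHom α (Fin 2)).comp ((MonoidHom.id _).prod (signFix.comp Equiv.Perm.sign))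

theorem evenFix_injective (α : Type*) [DecidableEq α] [Fintype α] : Function.Injective (evenFix α) := by
  intro σ τ h
  have h1 := Equiv.Perm.sumCongrHom_injective h
  exact congrArg Prod.fst h1

theorem sign_evenFix (α : Type*) [DecidableEq α] [Fintype α] (σ : Equiv.Perm α) :
    Equiv.Perm.sign (evenFix α σ) = 1 := by
  show Equiv.Perm.sign (Equiv.Perm.sumCongr σ (signFix (Equiv.Perm.sign σ))) = 1
  rw [Equiv.Perm.sign_sumCongr, sign_signFix, Int.units_mul_self]

open RegularWreathProduct in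
/-- The wreath product `C_p ≀ C_p` is a non-commutative `p`-group acting faithfully on `p²` points. -/
theorem exists_wreath (p : ℕ) [Fact p.Prime] :
    ∃ (G : Type) (_ : Group G) (α : Type) (_ : Fintype α) (t : G →* Equiv.Perm α),
      IsPGroup p G ∧ Fintype.card α = p ^ 2 ∧ Function.Injective t ∧ ∃ a b : G, a * b ≠ b * a := by
  have hp : p.Prime := Fact.out
  let D := Multiplicative (ZMod p)
  have hD : Nat.card D = p := by
    rw [Nat.card_congr Multiplicative.toAdd, Nat.card_zmod]
  refine ⟨D ≀ᵣ D, inferInstance, D × D, inferInstance, toPerm D D D, ?_, ?_, toPermInj D D D, ?_⟩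
  · apply IsPGroup.of_card (n := p + 1)
    rw [RegularWreathProduct.card, hD, pow_succ]
  · rw [Fintype.card_prod, ← Nat.card_eq_fintype_card, hD, sq]
  · have hnt : Nontrivial D := by
      rw [← Finite.one_lt_card_iff_nontrivial, hD]
      exact hp.one_lt
    obtain ⟨d, hd⟩ := exists_ne (1 : D)
    classical
    refine ⟨⟨Pi.mulSingle 1 d, 1⟩, inl d, fun h => ?_⟩
    have h1 := congrArg (fun w : D ≀ᵣ D => w.left 1) h
    simp only [mul_left, left_inl, Pi.mul_apply, Pi.mulSingle_eq_same, Pi.one_apply, mul_one, right_inl,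
      one_mul] at h1
    rw [Pi.mulSingle_eq_of_ne (by simpa using hd)] at h1
    exact hd h1

/-- For `p² ≤ n`, `6 ≤ n`, the alternating group of degree `n` contains a non-commutative `p`-subgroup. -/
theorem exists_noncomm_pSubgroup_alternating (n p : ℕ) (hn : 6 ≤ n) [Fact p.Prime] (hpn : p ^ 2 ≤ n) :
    ∃ D : Subgroup (alternatingGroup (Fin n)), IsPGroup p D ∧ ∃ a ∈ D, ∃ b ∈ D, a * b ≠ b * a := by
  have hp : p.Prime := Fact.out
  obtain ⟨G, _, α, _, t, hG, hα, ht, a, b, hab⟩ := exists_wreath p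
  classical
  suffices h : ∃ j : G →* Equiv.Perm (Fin n), Function.Injective j ∧ ∀ g, Equiv.Perm.sign (j g) = 1 by
    obtain ⟨j, hj, hs⟩ := h
    let j' : G →* alternatingGroup (Fin n) :=
      j.codRestrict (alternatingGroup (Fin n)) (fun g => Equiv.Perm.mem_alternatingGroup.2 (hs g))
    refine ⟨j'.range, hG.of_surjective j'.rangeRestrict j'.rangeRestrict_surjective, j' a, ⟨a, rfl⟩,
      j' b, ⟨b, rfl⟩, fun h => hab ?_⟩
    rw [← map_mul, ← map_mul] at h
    exact hj (congrArg Subtype.val h)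
  rcases hp.eq_two_or_odd' with h2 | hodd
  · have hc : Fintype.card (α ⊕ Fin 2) ≤ Fintype.card (Fin n) := by
      rw [Fintype.card_sum, hα, h2, Fintype.card_fin, Fintype.card_fin]
      omega
    obtain ⟨ι⟩ := Function.Embedding.nonempty_of_card_le hc
    refine ⟨(Equiv.Perm.viaEmbeddingHom ι).comp ((evenFix α).comp t),
      (Equiv.Perm.viaEmbeddingHom_injective ι).comp ((evenFix_injective α).comp ht), fun g => ?_⟩
    rw [MonoidHom.comp_apply, Equiv.Perm.viaEmbeddingHom_apply, Equiv.Perm.viaEmbedding,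
      Equiv.Perm.sign_extendDomain, MonoidHom.comp_apply, sign_evenFix]
  · have hc : Fintype.card α ≤ Fintype.card (Fin n) := by
      rw [hα, Fintype.card_fin]; exact hpn
    obtain ⟨ι⟩ := Function.Embedding.nonempty_of_card_le hc
    refine ⟨(Equiv.Perm.viaEmbeddingHom ι).comp t, (Equiv.Perm.viaEmbeddingHom_injective ι).comp ht,
      fun g => ?_⟩
    obtain ⟨k, hk⟩ := hG g
    have h1 : Equiv.Perm.sign (((Equiv.Perm.viaEmbeddingHom ι).comp t) g) ^ p ^ k = 1 := by
      rw [← map_pow, ← map_pow, hk, map_one, map_one]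
    rcases Int.units_eq_one_or (Equiv.Perm.sign (((Equiv.Perm.viaEmbeddingHom ι).comp t) g)) with h | h
    · exact h
    · rw [h, (hodd.pow).neg_one_pow] at h1
      exact absurd h1 (by decide)

end Fus
end Agent
end Cfsg
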