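import Cfsg.Agent.Fus.Grp
import Cfsg.Agent.Fus.Restrict
import Cfsg.Agent.Lib.Helper27.FusHyper
import Cfsg.Agent.Tr.Hyperfocal

/-!
The hyperfocal subgroup theorem for the fusion system of a group, and `O^p` of it.
-/

set_option autoImplicit false

namespace Cfsg.FusionSystem

open Cfsg Cfsg.Agent.Fus Cfsg.Agent.Lib.Helper27.Fus

variable {Ω : Type*} [Group Ω]

theorem exists_coprime_conj {p : ℕ} [Fact p.Prime] {H P : Subgroup Ω} [Finite H] {α : MulAut P}
    (hα : α ∈ autInducedBy H P) (hco : Nat.Coprime (orderOf α) p) :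
    ∃ g ∈ H, g ∈ Subgroup.normalizer (P : Set Ω) ∧ Nat.Coprime (orderOf g) p ∧
      ∀ x : P, ((α x : P) : Ω) = g * x * g⁻¹ := by
  rw [← conjAutHom_range] at hα
  obtain ⟨g, rfl⟩ := hα
  have hfN : Finite (normalizerIn H P) := finite_of_le normalizerIn_le
  obtain ⟨j, hj, hj'⟩ := exists_pow_coprime_lift p g (conjAutHom H P g) hco
  have hm := (g ^ j).2
  refine ⟨((g ^ j : normalizerIn H P) : Ω), (mem_normalizerIn.1 hm).1, (mem_normalizerIn.1 hm).2, ?_, ?_⟩
  · rwa [Subgroup.orderOf_coe]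
  · intro x
    rw [← hj', ← map_pow]
    rfl

theorem hyperfocal_groupFusionSystem [Finite Ω] (p : ℕ) [Fact p.Prime] (S : Sylow p Ω) :
    (groupFusionSystem (S : Subgroup Ω)).hyperfocalSubgroup p = (S : Subgroup Ω) ⊓ pResidual p Ω := by
  rw [Cfsg.Agent.Tr.sylow_inf_pResidual_eq_hyp, groupFusionSystem_eq]
  apply le_antisymm
  · rw [hyperfocal_le_iff_coprime]
    intro P hP α hα hco x
    rw [autGroup_ofSubgroup le_top hP] at hα
    obtain ⟨g, -, hgN, hgco, hg⟩ := exists_coprime_conj hα hco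
    rw [hg]
    exact Subgroup.subset_closure ⟨P, hP, g, hgN, hgco, x, x.2, rfl⟩
  · unfold Cfsg.Agent.Tr.hyp
    rw [Subgroup.closure_le]
    rintro _ ⟨Q, hQ, g, hg, hco, x, hx, rfl⟩
    have h1 : conjAut g hg ∈ opOf p ((fusionSystemOfSubgroup ⊤ (S : Subgroup Ω) le_top).autGroup Q) := by
      rw [opOf_eq_closure]
      apply Subgroup.subset_closure
      refine ⟨?_, ?_⟩
      · rw [autGroup_ofSubgroup le_top hQ, mem_autInducedBy_iff]
        exact ⟨g, Subgroup.mem_top g, fun x => rfl⟩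
      · have h2 : conjAut g hg = conjAutHom ⊤ Q ⟨g, mem_normalizerIn.2 ⟨Subgroup.mem_top g, hg⟩⟩ := rfl
        rw [h2]
        refine Nat.Coprime.coprime_dvd_left (orderOf_map_dvd _ _) ?_
        rwa [← Subgroup.orderOf_coe]
    exact mem_hyperfocal _ p hQ h1 ⟨x, hx⟩

theorem hasPPowerIndexIn_pResidual [Finite Ω] (p : ℕ) [Fact p.Prime] (S : Sylow p Ω)
    (h : (S : Subgroup Ω) ⊓ pResidual p Ω ≤ pResidual p Ω) :
    (fusionSystemOfSubgroup (pResidual p Ω) ((S : Subgroup Ω) ⊓ pResidual p Ω) h).HasPPowerIndexIn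
      (groupFusionSystem (S : Subgroup Ω)) p := by
  refine ⟨?_, (hyperfocal_groupFusionSystem p S).le, ?_⟩
  · rintro P φ ⟨hP, hφT, g, -, hφ⟩
    exact ⟨hP.trans inf_le_left, fun x => (hφT x).1, g, hφ⟩
  · intro P hP
    change opOf p _ ≤ _
    rw [opOf_eq_closure, Subgroup.closure_le]
    rintro α ⟨hα, hco⟩
    rw [groupFusionSystem_eq, autGroup_ofSubgroup le_top (hP.trans inf_le_left)] at hα
    obtain ⟨g, -, hgN, hgco, hg⟩ := exists_coprime_conj hα hco
    rw [SetLike.mem_coe, autGroup_ofSubgroup h hP, mem_autInducedBy_iff]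
    exact ⟨g, Cfsg.Agent.H12.mem_pResidual hgco, hg⟩

theorem isSaturated_pResidual [Finite Ω] (p : ℕ) [Fact p.Prime] (S : Sylow p Ω)
    (h : (S : Subgroup Ω) ⊓ pResidual p Ω ≤ pResidual p Ω) :
    (fusionSystemOfSubgroup (pResidual p Ω) ((S : Subgroup Ω) ⊓ pResidual p Ω) h).IsSaturated p := by
  apply isSaturated_ofSubgroup
  exact (isSylowIn_top S).inf_normal le_top le_top
    (fun k hk a _ => (Cfsg.Agent.H12.pResidual_normal p Ω).conj_mem k hk a)

theorem hom_eq_of_isPResidual [Finite Ω] (p : ℕ) [Fact p.Prime] (S : Sylow p Ω)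
    (E : FusionSystem ((groupFusionSystem (S : Subgroup Ω)).hyperfocalSubgroup p))
    (hE : (groupFusionSystem (S : Subgroup Ω)).IsPResidual p E)
    (h : (S : Subgroup Ω) ⊓ pResidual p Ω ≤ pResidual p Ω) (P : Subgroup Ω) :
    E.Hom P = (fusionSystemOfSubgroup (pResidual p Ω) ((S : Subgroup Ω) ⊓ pResidual p Ω) h).Hom P := by
  have e := hyperfocal_groupFusionSystem p S
  have hp1 : IsPGroup p ((groupFusionSystem (S : Subgroup Ω)).hyperfocalSubgroup p) :=
    S.2.to_le (e.le.trans inf_le_left)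
  have hp2 : IsPGroup p ((S : Subgroup Ω) ⊓ pResidual p Ω : Subgroup Ω) := S.2.to_le inf_le_left
  apply Set.Subset.antisymm
  · exact isSubsystemOf_of_hasPPowerIndexIn hp1 hE.1 hE.2.1 (e.le.trans inf_le_left) e.le
      (hasPPowerIndexIn_pResidual p S h) P
  · exact isSubsystemOf_of_hasPPowerIndexIn hp2 (isSaturated_pResidual p S h)
      (hasPPowerIndexIn_pResidual p S h).1 inf_le_left e.ge hE.2 P

end Cfsg.FusionSystem
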