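import Cfsg.Agent.Lib.Helper27.FusCentric
import Cfsg.Agent.Lib.Helper27.FusTransport
import Cfsg.Agent.Fus.Grp

/-!
Invariant subsystems: `Aut_E(P)` is normal in `Aut_F(P)`; subsystems over the same group.
-/

set_option autoImplicit false

namespace Cfsg
namespace FusionSystem

open Agent.Fus Cfsg.Agent.Lib.Helper27.Fus

variable {Ω : Type*} [Group Ω] {S T : Subgroup Ω}

theorem IsInvariantIn.autGroup_normal {E : FusionSystem T} {F : FusionSystem S} (h : E.IsInvariantIn F)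
    {P : Subgroup Ω} (hP : P ≤ T) {γ δ : MulAut P} (hγ : γ ∈ F.autGroup P) (hδ : δ ∈ E.autGroup P) :
    γ * δ * γ⁻¹ ∈ E.autGroup P := by
  have hTS : T ≤ S := h.2.1.1
  have hPS : P ≤ S := hP.trans hTS
  obtain ⟨α, hα, φ₀, hφ₀, hγα⟩ := h.2.2.2 P hP _ ((F.mem_autGroup_iff hPS γ).1 hγ)
  have hφ₀T : ∀ x, φ₀ x ∈ T := (E.le_of_mem hφ₀).2
  have hP₀ : φ₀.range ≤ T := by
    rintro _ ⟨x, rfl⟩
    exact hφ₀T x
  have he₀ := E.isMor_rangeEquiv hφ₀
  have hf : E.IsMor ((E.rangeEquiv hφ₀).toMonoidHom.comp (δ.toMonoidHom.comp (E.rangeEquiv hφ₀).symm.toMonoidHom)) :=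
    he₀.comp E (((E.mem_autGroup_iff hP δ).1 hδ).comp E (he₀.symm E))
  have htr := Cfsg.Agent.Lib.Helper27.Fus.IsInvariantIn.isMor_transport h hα hP₀ hP₀ hf
  have hγα' : ∀ x : P, ((γ x : P) : Ω) = ((α ⟨φ₀ x, hφ₀T x⟩ : T) : Ω) := fun x => hγα x (hφ₀T x)
  have himg : imgAut α φ₀.range = P := by
    ext y
    rw [mem_imgAut]
    constructor
    · rintro ⟨t, ⟨x, hx⟩, rfl⟩
      have : t = ⟨φ₀ x, hφ₀T x⟩ := Subtype.ext hx.symm
      rw [this, ← hγα']
      exact (γ x).2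
    · intro hy
      refine ⟨⟨φ₀ (γ⁻¹ ⟨y, hy⟩), hφ₀T _⟩, ⟨_, rfl⟩, ?_⟩
      rw [← hγα']
      simp
  rw [E.mem_autGroup_iff hP]
  refine E.hom_congr himg htr _ (fun y hy hy' => ?_)
  set x : P := γ⁻¹ ⟨y, hy'⟩ with hx
  have hyx : γ x = ⟨y, hy'⟩ := by simp [hx]
  have h1 : (resEquiv α hP₀).symm ⟨y, hy⟩ = E.rangeEquiv hφ₀ x := by
    rw [MulEquiv.symm_apply_eq]
    apply Subtype.ext
    rw [resEquiv_coe]
    have h2 := hγα' x
    rw [hyx] at h2
    exact h2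
  show (((γ * δ * γ⁻¹) ⟨y, hy'⟩ : P) : Ω) =
    ((resEquiv α hP₀ (E.rangeEquiv hφ₀ (δ ((E.rangeEquiv hφ₀).symm ((resEquiv α hP₀).symm ⟨y, hy⟩)))) :
      imgAut α φ₀.range) : Ω)
  rw [h1, MulEquiv.symm_apply_apply, resEquiv_coe]
  have h3 := hγα' (δ x)
  exact h3

/-- For an invariant subsystem over the same group, `Aut_E(R)` contains every `p`-element of `Aut_F(R)` when `R` is
fully normalized. -/
theorem IsInvariantIn.pElement_mem {E F : FusionSystem S} [Finite S] {p : ℕ} [Fact p.Prime]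
    (hS : IsPGroup p S) (hF : F.IsSaturated p) (h : E.IsInvariantIn F) {R : Subgroup Ω}
    (hR : F.IsFullyNormalized R) {β : MulAut R} (hβ : β ∈ F.autGroup R) {k : ℕ} (hk : orderOf β = p ^ k) :
    β ∈ E.autGroup R := by
  have hRS : R ≤ S := hR.1
  have hfR : Finite R := finite_of_le hRS
  have hsyl := (hF.fullyNormalized F hS hR).2.1.isSylowIn
  have hK : Subgroup.zpowers β ≤ F.autGroup R := by
    rw [Subgroup.zpowers_le]; exact hβ
  have hKp : IsPGroup p (Subgroup.zpowers β) := IsPGroup.of_card (n := k) (by rw [Nat.card_zpowers, hk])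
  obtain ⟨γ, hγ, hγK⟩ := hsyl.exists_conj_le hK hKp
  have h1 := E.autInducedBy_le_autGroup hRS (hγK β (Subgroup.mem_zpowers β))
  have h2 := h.autGroup_normal hRS (Subgroup.inv_mem _ hγ) h1
  have h3 : γ⁻¹ * (γ * β * γ⁻¹) * γ⁻¹⁻¹ = β := by group
  rwa [h3] at h2

/-- An invariant subsystem over the same group containing `Aut_F(S)` is everything. -/
theorem IsInvariantIn.hom_eq_of_autGroup_le {E F : FusionSystem S} (h : E.IsInvariantIn F)
    (hA : F.autGroup S ≤ E.autGroup S) (P : Subgroup Ω) : E.Hom P = F.Hom P := by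
  apply Set.Subset.antisymm (h.1 P)
  intro φ hφ
  have hP := (F.le_of_mem hφ).1
  obtain ⟨α, hα, φ₀, hφ₀, hφα⟩ := h.2.2.2 P hP φ hφ
  have h1 := E.comp_mem hφ₀ ((E.mem_autGroup_iff le_rfl α).1 (hA hα)) (E.le_of_mem hφ₀).2
  have h2 : (S.subtype.comp α.toMonoidHom).comp (φ₀.codRestrict S (E.le_of_mem hφ₀).2) = φ := by
    ext x
    exact (hφα x ((E.le_of_mem hφ₀).2 x)).symm
  rwa [h2] at h1

end FusionSystem
end Cfsg
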