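import Cfsg.Agent.Fus.PPowerNormal
import Cfsg.Agent.Fus.StrongInv
import Cfsg.Agent.Lib.Helper27.FusCentric
import Cfsg.Agent.Lib.Helper27.FusFrattini

/-!
Subsystems of index prime to `p` (S5114).
-/

set_option autoImplicit false

namespace Cfsg
namespace Agent
namespace Fus

variable {X : Type*} [Group X]

/-- The image of `O^{p'}(A)` in the ambient group. -/
def opPrimeOf (p : ℕ) (A : Subgroup X) : Subgroup X :=
  (Subgroup.closure {a : A | ∃ k : ℕ, orderOf a = p ^ k}).map A.subtype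

theorem opPrimeOf_le (p : ℕ) (A : Subgroup X) : opPrimeOf p A ≤ A := by
  rintro _ ⟨x, -, rfl⟩
  exact x.2

theorem opPrimeOf_eq_closure (p : ℕ) (A : Subgroup X) :
    opPrimeOf p A = Subgroup.closure {a | a ∈ A ∧ ∃ k : ℕ, orderOf a = p ^ k} := by
  unfold opPrimeOf
  rw [MonoidHom.map_closure]
  congr 1
  ext a
  constructor
  · rintro ⟨x, ⟨k, hx⟩, rfl⟩
    refine ⟨x.2, k, ?_⟩
    have : orderOf ((A.subtype) x) = orderOf x := Subgroup.orderOf_coe x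
    rw [this]; exact hx
  · rintro ⟨ha, k, hc⟩
    refine ⟨⟨a, ha⟩, ⟨k, ?_⟩, rfl⟩
    rw [← Subgroup.orderOf_coe]; exact hc

theorem opPrimeOf_map_equiv {Y : Type*} [Group Y] (p : ℕ) (A : Subgroup X) (f : X ≃* Y) :
    (opPrimeOf p A).map f.toMonoidHom = opPrimeOf p (A.map f.toMonoidHom) := by
  rw [opPrimeOf_eq_closure, opPrimeOf_eq_closure, MonoidHom.map_closure]
  congr 1
  ext y
  constructor
  · rintro ⟨a, ⟨ha, hc⟩, rfl⟩
    refine ⟨⟨a, ha, rfl⟩, ?_⟩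
    have : orderOf (f.toMonoidHom a) = orderOf a := f.orderOf_eq a
    rw [this]; exact hc
  · rintro ⟨⟨a, ha, rfl⟩, hc⟩
    refine ⟨a, ⟨ha, ?_⟩, rfl⟩
    have : orderOf (f.toMonoidHom a) = orderOf a := f.orderOf_eq a
    rw [← this]; exact hc

theorem opPrimeOf_normal (p : ℕ) (A : Subgroup X) {b g : X} (hb : b ∈ opPrimeOf p A) (hg : g ∈ A) :
    g * b * g⁻¹ ∈ opPrimeOf p A := by
  have h1 : A.map (MulAut.conj g).toMonoidHom = A := by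
    ext y
    constructor
    · rintro ⟨a, ha, rfl⟩
      exact A.mul_mem (A.mul_mem hg ha) (A.inv_mem hg)
    · intro hy
      exact ⟨g⁻¹ * y * g, A.mul_mem (A.mul_mem (A.inv_mem hg) hy) hg, by simp [mul_assoc]⟩
  have h2 := opPrimeOf_map_equiv p A (MulAut.conj g)
  rw [h1] at h2
  rw [← h2]
  exact ⟨b, hb, rfl⟩

theorem le_opPrimeOf {p : ℕ} [Fact p.Prime] {U A : Subgroup X} (hUA : U ≤ A) (hU : IsPGroup p U) :
    U ≤ opPrimeOf p A := by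
  intro u hu
  rw [opPrimeOf_eq_closure]
  apply Subgroup.subset_closure
  refine ⟨hUA hu, ?_⟩
  obtain ⟨k, hk⟩ := hU ⟨u, hu⟩
  have h1 : u ^ p ^ k = 1 := congrArg Subtype.val hk
  obtain ⟨j, -, hj⟩ := (Nat.dvd_prime_pow Fact.out).1 (orderOf_dvd_of_pow_eq_one h1)
  exact ⟨j, hj⟩

end Fus
end Agent

namespace FusionSystem

open Cfsg.Agent.Fus Cfsg.Agent.Lib.Helper27.Fus

variable {Ω : Type*} [Group Ω] {S T : Subgroup Ω}

theorem imgAut_mul (α β : MulAut T) (P : Subgroup Ω) : imgAut (β * α) P = imgAut β (imgAut α P) := by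
  ext y
  rw [mem_imgAut, mem_imgAut]
  constructor
  · rintro ⟨x, hx, rfl⟩
    exact ⟨α x, apply_mem_imgAut α hx, rfl⟩
  · rintro ⟨z, hz, rfl⟩
    obtain ⟨x, hx, hxz⟩ := mem_imgAut.1 hz
    refine ⟨x, hx, ?_⟩
    have : α x = z := Subtype.ext hxz
    rw [← this]; rfl

theorem invPart_autInvariantIn (E : FusionSystem T) (F : FusionSystem S) :
    (E.invPart F).AutInvariantIn F := by
  intro P hPT φ hφ α hα
  obtain ⟨χ, hχ, hχx⟩ := hφ.2 hPT α hα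
  refine ⟨χ, ⟨hχ, fun hP' β hβ => ?_⟩, hχx⟩
  obtain ⟨χ', hχ', hχ'x⟩ := hφ.2 hPT (β * α) (Subgroup.mul_mem _ hβ hα)
  have hφT := (E.le_of_mem hφ.1).2
  have heq := imgAut_mul α β P
  refine ⟨χ'.comp (Subgroup.inclusion heq.ge), E.hom_congr heq hχ' _ (fun _ _ _ => rfl), ?_⟩
  rintro ⟨_, t, ht, rfl⟩ hφx hαx
  have ht' : (t : Ω) ∈ P := Subgroup.mem_subgroupOf.1 ht
  have h1 : χ ⟨(T.subtype.comp α.toMonoidHom) t, ⟨t, ht, rfl⟩⟩ = _ :=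
    hχx ⟨t, ht'⟩ (hφT _) ⟨t, ht, rfl⟩
  have h2 := hχ'x ⟨t, ht'⟩ (hφT _) (apply_mem_imgAut (β * α) (x := t) ht')
  show χ' _ = _
  have h3 : (Subgroup.inclusion heq.ge ⟨((β ⟨(T.subtype.comp α.toMonoidHom) t, hP' ⟨t, ht, rfl⟩⟩ : T) : Ω),
      hαx⟩ : imgAut (β * α) P) = ⟨(((β * α) ⟨t, hPT ht'⟩ : T) : Ω),
        apply_mem_imgAut (β * α) (x := t) ht'⟩ := Subtype.ext rfl
  rw [h3, h2]
  have h4 : (⟨χ ⟨(T.subtype.comp α.toMonoidHom) t, ⟨t, ht, rfl⟩⟩, hφx⟩ : T) =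
      α ⟨φ ⟨t, ht'⟩, hφT _⟩ := Subtype.ext h1
  rw [h4]
  rfl

theorem invPart_le (E : FusionSystem T) (F : FusionSystem S) : E.invPart F ≤ E := fun _ _ h => h.1

theorem opPrimeOf_le_invPart {E F : FusionSystem S} {p : ℕ}
    (h : ∀ P, F.IsCentric P → opPrimeOf p (F.autGroup P) ≤ E.autGroup P) {P : Subgroup Ω}
    (hP : F.IsCentric P) : opPrimeOf p (F.autGroup P) ≤ (E.invPart F).autGroup P := by
  intro b hb
  have hPS := hP.1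
  rw [mem_autGroup_iff _ hPS]
  refine ⟨(E.mem_autGroup_iff hPS b).1 (h P hP hb), fun _ α hα => ?_⟩
  have he := isMor_resEquiv F le_rfl hα hPS
  have h1 : MulAut.congr (resEquiv α hPS) b ∈ opPrimeOf p (F.autGroup (imgAut α P)) := by
    rw [← F.map_congr_autGroup he, ← opPrimeOf_map_equiv]
    exact ⟨b, hb, rfl⟩
  have hc : F.IsCentric (imgAut α P) := IsCentric.of_conj hP (F.isConj_iff.2 ⟨_, he⟩)
  have h2 := h _ hc h1
  refine ⟨_, (E.mem_autGroup_iff (imgAut_le α P) _).1 h2, fun x hφx hαx => ?_⟩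
  show ((resEquiv α hPS (b ((resEquiv α hPS).symm ⟨_, hαx⟩)) : imgAut α P) : Ω) = _
  have h3 : (⟨((α ⟨x, hPS x.2⟩ : S) : Ω), hαx⟩ : imgAut α P) = resEquiv α hPS x := Subtype.ext rfl
  rw [h3, MulEquiv.symm_apply_apply]
  rfl

theorem le_frattiniSys_of_opPrime (F : FusionSystem S) [Finite S] {p : ℕ} [Fact p.Prime]
    (hS : IsPGroup p S) (hF : F.IsSaturated p) (E : FusionSystem S) (hinv : E.AutInvariantIn F)
    (h : ∀ P, F.IsCentric P → opPrimeOf p (F.autGroup P) ≤ E.autGroup P) :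
    F ≤ F.frattiniSys F.stronglyClosed_self E hinv := by
  refine F.alperin_induction _ hS hF (F.autGroup_le_frattiniSys_of_le _ E hinv le_rfl le_rfl)
    (fun P hP hbig => ?_)
  have hPle := hP.1.1
  have : Finite P := finite_of_le hPle
  obtain ⟨-, hfa, hrec⟩ := hF.fullyNormalized F hS hP.2.1
  intro β hβ
  obtain ⟨κ, hκ, hκβ⟩ := frattini_sylowIn hfa.isSylowIn
    (le_opPrimeOf (F.autInducedBy_le_autGroup hPle) (isPGroup_autInducedBy hS)) (opPrimeOf_le p _)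
    (fun a ha b hb => opPrimeOf_normal p _ hb ha) hβ
  have hν : κ * β ∈ F.autGroup P := Subgroup.mul_mem _ (opPrimeOf_le _ _ hκ) hβ
  obtain ⟨ψ, hψ, hψe⟩ := exists_extension_of_normalizes F hrec hν hκβ
  have hlt := lt_normalizerIn hS (IsEssential.lt hS hF hP)
  have hψG := hbig _ (card_lt_of_lt normalizerIn_le hlt) hψ
  have hνG : κ * β ∈ (F.frattiniSys F.stronglyClosed_self E hinv).autGroup P := by
    rw [mem_autGroup_iff _ hPle]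
    have h4 := (F.frattiniSys F.stronglyClosed_self E hinv).restrict_mem hψG hlt.le
    have h5 : (S.subtype.comp ψ).comp (Subgroup.inclusion hlt.le) = P.subtype.comp (κ * β).toMonoidHom := by
      ext x; exact hψe x _ rfl
    show P.subtype.comp (κ * β).toMonoidHom ∈ _
    rw [← h5]; exact h4
  have hκG : κ ∈ (F.frattiniSys F.stronglyClosed_self E hinv).autGroup P := by
    rw [mem_autGroup_iff _ hPle]
    apply mem_frattiniSys_of_mem ((F.mem_autGroup_iff hPle _).1 (opPrimeOf_le _ _ hκ))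
    exact E.restrict_mem ((E.mem_autGroup_iff hPle _).1 (h P hP.1 hκ)) inf_le_left
  have h6 : β = κ⁻¹ * (κ * β) := by group
  rw [h6]
  exact Subgroup.mul_mem _ (Subgroup.inv_mem _ hκG) hνG

theorem opPrimeOf_le_of_frattini (F : FusionSystem S) [Finite S] {p : ℕ} [Fact p.Prime]
    (hS : IsPGroup p S) (hF : F.IsSaturated p) (E : FusionSystem S)
    (hfr : ∀ (P : Subgroup Ω) (φ : P →* Ω), φ ∈ F.Hom P → ∃ α ∈ F.autGroup S, ∃ φ₀ ∈ E.Hom P,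
      ∀ (x : P) (hx : φ₀ x ∈ S), φ x = ((α ⟨φ₀ x, hx⟩ : S) : Ω)) {P : Subgroup Ω} (hP : P ≤ S) :
    opPrimeOf p (F.autGroup P) ≤ E.autGroup P := by
  rw [opPrimeOf_eq_closure, Subgroup.closure_le]
  rintro γ ⟨hγ, k, hk⟩
  obtain ⟨Q, hPQ, hQ⟩ := F.exists_fullyNormalized_conj hP
  obtain ⟨-, hfa, -⟩ := hF.fullyNormalized F hS hQ
  obtain ⟨e₀, he₀⟩ := F.isConj_iff.1 hPQ
  have hQS := hQ.1
  have : Finite Q := finite_of_le hQS
  have hK : Subgroup.zpowers (MulAut.congr e₀ γ) ≤ F.autGroup Q := by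
    rw [Subgroup.zpowers_le]; exact F.congr_mem_autGroup he₀ hγ
  have hKp : IsPGroup p (Subgroup.zpowers (MulAut.congr e₀ γ)) := by
    apply IsPGroup.of_card (n := k)
    rw [Nat.card_zpowers, MulEquiv.orderOf_eq, hk]
  obtain ⟨χ, hχ, hχK⟩ := hfa.isSylowIn.exists_conj_le hK hKp
  have h3 := hχK _ (Subgroup.mem_zpowers _)
  obtain ⟨s, hs, hs'⟩ := (mem_autInducedBy_iff _).1 h3
  have hχm := (F.mem_autGroup_iff hQS χ).1 hχ
  have he : F.IsMor (e₀.trans χ).toMonoidHom := hχm.comp F he₀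
  have hkey : ∀ x : P, (((e₀.trans χ) (γ x) : Q) : Ω) = s * ((e₀.trans χ) x : Q) * s⁻¹ := by
    intro x
    rw [← hs' ((e₀.trans χ) x)]
    simp [MulAut.congr_apply, MulAut.mul_apply]
  obtain ⟨α, hα, φ₀, hφ₀, hφα⟩ := hfr P _ he
  have hφ₀S := (E.le_of_mem hφ₀).2
  have hφα' : ∀ x : P, (((e₀.trans χ) x : Q) : Ω) = ((α ⟨φ₀ x, hφ₀S x⟩ : S) : Ω) := fun x => hφα x _
  have hcl : ∀ x : P, φ₀ (γ x) = ((α⁻¹ ⟨s, hs⟩ : S) : Ω) * φ₀ x * ((α⁻¹ ⟨s, hs⟩ : S) : Ω)⁻¹ := by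
    intro x
    have h4 : α ⟨φ₀ (γ x), hφ₀S _⟩ = ⟨s, hs⟩ * α ⟨φ₀ x, hφ₀S x⟩ * ⟨s, hs⟩⁻¹ := by
      apply Subtype.ext
      rw [← hφα', hkey, hφα']
      rfl
    have h5 := congrArg (fun z => ((α⁻¹ z : S) : Ω)) h4
    simpa using h5
  obtain ⟨ψ₀, hψ₀, hψ₀x⟩ := E.inv_mem hφ₀
  have hrS : φ₀.range ≤ S := (E.le_of_mem hψ₀).1
  have h1 := E.comp_mem hφ₀ (E.conj_mem hrS (α⁻¹ ⟨s, hs⟩ : S).2) (fun x => ⟨x, rfl⟩)
  have h2 := E.comp_mem h1 hψ₀ (fun x => ⟨γ x, hcl x⟩)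
  rw [SetLike.mem_coe, E.mem_autGroup_iff hP]
  show P.subtype.comp γ.toMonoidHom ∈ E.Hom P
  convert h2 using 1
  ext x
  have h6 := hψ₀x (γ x)
  show ((γ x : P) : Ω) = ψ₀ ⟨_, _⟩
  rw [← h6]
  congr 1
  exact Subtype.ext (hcl x)

theorem isCentric_of_frattini {E F : FusionSystem S}
    (hfr : ∀ (P : Subgroup Ω) (φ : P →* Ω), φ ∈ F.Hom P → ∃ α ∈ F.autGroup S, ∃ φ₀ ∈ E.Hom P,
      ∀ (x : P) (hx : φ₀ x ∈ S), φ x = ((α ⟨φ₀ x, hx⟩ : S) : Ω)) {P : Subgroup Ω} (hP : E.IsCentric P) :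
    F.IsCentric P := by
  refine ⟨hP.1, ?_⟩
  rintro Q ⟨φ, hφ, rfl⟩
  obtain ⟨α, hα, φ₀, hφ₀, hφα⟩ := hfr P φ hφ
  have hφ₀S := (E.le_of_mem hφ₀).2
  have h0 := hP.2 φ₀.range ⟨φ₀, hφ₀, rfl⟩
  intro c hc
  obtain ⟨hcS, hcc⟩ := mem_centralizerIn.1 hc
  have h1 : ((α⁻¹ ⟨c, hcS⟩ : S) : Ω) ∈ centralizerIn S φ₀.range := by
    refine mem_centralizerIn.2 ⟨(α⁻¹ _).2, ?_⟩
    rintro _ ⟨x, rfl⟩
    have h2 := hcc (φ x) ⟨x, rfl⟩
    rw [hφα x (hφ₀S x)] at h2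
    have h3 : α ⟨φ₀ x, hφ₀S x⟩ * ⟨c, hcS⟩ = ⟨c, hcS⟩ * α ⟨φ₀ x, hφ₀S x⟩ := Subtype.ext h2
    have h4 := congrArg (fun z => ((α⁻¹ z : S) : Ω)) h3
    simpa using h4
  obtain ⟨x, hx⟩ := h0 h1
  refine ⟨x, ?_⟩
  rw [hφα x (hφ₀S x)]
  have h5 : (⟨φ₀ x, hφ₀S x⟩ : S) = α⁻¹ ⟨c, hcS⟩ := Subtype.ext hx
  rw [h5, MulAut.apply_inv_self]

/-- S5114. -/
theorem primeToPIndex_of_centrics (F : FusionSystem S) [Finite S] {p : ℕ} [Fact p.Prime]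
    (hS : IsPGroup p S) (hF : F.IsSaturated p) (E : FusionSystem S) (hEF : E.IsSubsystemOf F)
    (h : ∀ P, F.IsCentric P → opPrimeOf p (F.autGroup P) ≤ E.autGroup P) :
    E.HasPrimeToPIndexIn F p ∧ (∀ (P : Subgroup Ω) (φ : P →* Ω), φ ∈ F.Hom P → ∃ α ∈ F.autGroup S,
      ∃ φ₀ ∈ E.Hom P, ∀ (x : P) (hx : φ₀ x ∈ S), φ x = ((α ⟨φ₀ x, hx⟩ : S) : Ω)) ∧
      ∀ P : Subgroup Ω, E.IsCentric P ↔ F.IsCentric P := by
  have hfr : ∀ (P : Subgroup Ω) (φ : P →* Ω), φ ∈ F.Hom P → ∃ α ∈ F.autGroup S, ∃ φ₀ ∈ E.Hom P,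
      ∀ (x : P) (hx : φ₀ x ∈ S), φ x = ((α ⟨φ₀ x, hx⟩ : S) : Ω) := by
    intro P φ hφ
    obtain ⟨α, hα, φ₀, hφ₀, h1⟩ := frattini_of_le (F.le_frattiniSys_of_opPrime hS hF (E.invPart F)
      (invPart_autInvariantIn E F) (fun P hP => opPrimeOf_le_invPart h hP)) P (F.le_of_mem hφ).1 φ hφ
    exact ⟨α, hα, φ₀, hφ₀.1, h1⟩
  exact ⟨⟨hEF, fun P hP => F.opPrimeOf_le_of_frattini hS hF E hfr hP⟩, hfr,
    fun P => ⟨isCentric_of_frattini hfr, IsCentric.of_le_system hEF⟩⟩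

end FusionSystem
end Cfsg
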