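import Cfsg.Agent.Lib.Helper27.FusFrattini
import Cfsg.Agent.Lib.Helper27.FusCentric
import Cfsg.Agent.Fus.Quot2
import Mathlib.FieldTheory.Finite.Basic

/-!
The Roberts–Shpectorov form of saturation (S5111).
-/

set_option autoImplicit false

namespace Cfsg
namespace FusionSystem

open Agent.Fus Cfsg.Agent.Lib.Helper27.Fus

variable {Ω : Type*} [Group Ω] {S : Subgroup Ω}

/-- A power of `a` that is a `p`-element and acts like `a` wherever `a` acts with `p`-power order. -/
theorem exists_pPart_exponent {X : Type*} [Group X] [Finite X] {p : ℕ} [Fact p.Prime] (a : X) (n : ℕ) :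
    ∃ j k : ℕ, j ≡ 1 [MOD p ^ n] ∧ (a ^ j) ^ p ^ k = 1 := by
  have hp : p.Prime := Fact.out
  have ho : orderOf a ≠ 0 := (orderOf_pos a).ne'
  set m := (orderOf a).factorization p with hm
  set c := orderOf a / p ^ m with hc
  have hcc : Nat.Coprime c (p ^ n) := Nat.Coprime.pow_right n (Nat.coprime_ordCompl hp ho).symm
  have htot : 0 < Nat.totient (p ^ n) := Nat.totient_pos.2 (pow_pos hp.pos n)
  refine ⟨c ^ Nat.totient (p ^ n), m, Nat.ModEq.pow_totient hcc, ?_⟩
  obtain ⟨d, hd⟩ : c ∣ c ^ Nat.totient (p ^ n) := dvd_pow_self c htot.ne'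
  rw [← pow_mul, hd, mul_right_comm, mul_comm c, Nat.mul_div_cancel' (Nat.ordProj_dvd _ _), pow_mul,
    pow_orderOf_eq_one, one_pow]

theorem fullyAutomized_of_receptive (F : FusionSystem S) [Finite S] {p : ℕ} [Fact p.Prime]
    (hS : IsPGroup p S) (hSa : F.IsFullyAutomized p S)
    (hrec : ∀ P : Subgroup Ω, F.IsFullyNormalized P → F.IsReceptive P) :
    ∀ (n : ℕ) (Q : Subgroup Ω), Nat.card S - Nat.card Q = n → F.IsFullyNormalized Q →
      F.IsFullyAutomized p Q := by
  have hp : p.Prime := Fact.out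
  intro n
  induction n using Nat.strong_induction_on with
  | _ n ih =>
    intro Q hn hQ
    have hQS : Q ≤ S := hQ.1
    by_cases hQeq : Q = S
    · rw [hQeq]; exact hSa
    have hlt : Q < S := lt_of_le_of_ne hQS hQeq
    have hfQ : Finite Q := finite_of_le hQS
    have hUA := F.autInducedBy_le_autGroup hQS
    have hUp : IsPGroup p (autInducedBy S Q) := isPGroup_autInducedBy hS
    obtain ⟨V, hUV, hVA, hV⟩ := exists_isSylowIn p (F.autGroup Q) hUA hUp
    by_cases hUeq : autInducedBy S Q = V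
    · exact ⟨hQS, hUeq ▸ hV⟩
    exfalso
    have hVp := hV.isPGroup hVA
    obtain ⟨α, hαV, hαN, hαU⟩ := exists_normalizer_not_mem hVp (lt_of_le_of_ne hUV hUeq)
    apply hαU
    have hαF : α ∈ F.autGroup Q := hVA hαV
    obtain ⟨a, ha⟩ := hVp ⟨α, hαV⟩
    have ha' : α ^ p ^ a = 1 := congrArg Subtype.val ha
    -- extend `α` to `R = N_S(Q)`
    obtain ⟨ψ, hψ, hψα⟩ := exists_extension_of_normalizes F (hrec Q hQ) hαF
      (fun u hu => conj_mem_of_normalizer hαN hu)
    have hQR : Q ≤ normalizerIn S Q := le_normalizerIn hQS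
    have hRS : normalizerIn S Q ≤ S := normalizerIn_le
    have hfR : Finite (normalizerIn S Q) := finite_of_le hRS
    have hψR : ∀ y : normalizerIn S Q, ((ψ y : S) : Ω) ∈ normalizerIn S Q := fun y =>
      mem_normalizerIn.2 ⟨(ψ y).2, map_mem_normalizer ψ α hψα hQR (mem_normalizerIn.1 y.2).2⟩
    have hmor : F.IsMor ((S.subtype.comp ψ).codRestrict _ hψR) := F.isMor_codRestrict hψ hψR
    have hbij : Function.Bijective ((S.subtype.comp ψ).codRestrict _ hψR) :=
      ⟨hmor.injective F, Finite.surjective_of_injective (hmor.injective F)⟩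
    obtain ⟨αh, hαhF, hαh⟩ : ∃ αh : MulAut (normalizerIn S Q), αh ∈ F.autGroup (normalizerIn S Q) ∧
        ∀ x : Q, αh (Subgroup.inclusion hQR x) = Subgroup.inclusion hQR (α x) :=
      ⟨equivOfBijective _ hbij, (F.mem_autGroup_iff hRS _).2 (F.isMor_equivOfBijective hmor hbij),
        fun x => Subtype.ext (hψα x _ rfl)⟩
    have hαhpow : ∀ (i : ℕ) (x : Q), (αh ^ i) (Subgroup.inclusion hQR x) = Subgroup.inclusion hQR ((α ^ i) x) := by
      intro i
      induction i with
      | zero => intro x; rfl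
      | succ i ihi =>
        intro x
        rw [pow_succ', pow_succ', MulAut.mul_apply, MulAut.mul_apply, ihi, hαh]
    obtain ⟨j, k, hj, hjk⟩ := exists_pPart_exponent (p := p) αh a
    have hαj : α ^ j = α := by
      have h1 : j ≡ 1 [MOD orderOf α] := hj.of_dvd (orderOf_dvd_of_pow_eq_one ha')
      have h3 := pow_eq_pow_iff_modEq.2 h1
      rwa [pow_one] at h3
    set γ := αh ^ j with hγ
    have hγF : γ ∈ F.autGroup (normalizerIn S Q) := Subgroup.pow_mem _ hαhF _
    have hγα : ∀ x : Q, γ (Subgroup.inclusion hQR x) = Subgroup.inclusion hQR (α x) := by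
      intro x
      rw [hγ, hαhpow, hαj]
    -- a fully normalized conjugate of `R`
    obtain ⟨R', hRR', hR'⟩ := F.exists_fullyNormalized_conj hRS
    have hltR : Q < normalizerIn S Q := lt_normalizerIn hS hlt
    have hcQR := card_lt_of_lt hRS hltR
    have hcR' := hRR'.card_eq F
    have hR'S : R' ≤ S := hR'.1
    have hfR' : Finite R' := finite_of_le hR'S
    have hcR'S : Nat.card R' ≤ Nat.card S := Subgroup.card_le_of_le hR'S
    have hR'a := ih (Nat.card S - Nat.card R') (by omega) R' rfl hR'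
    obtain ⟨e₀, he₀⟩ := F.isConj_iff.1 hRR'
    have hδF := F.congr_mem_autGroup he₀ hγF
    have hK : Subgroup.zpowers (MulAut.congr e₀ γ) ≤ F.autGroup R' := by
      rw [Subgroup.zpowers_le]; exact hδF
    have hδpow : (MulAut.congr e₀ γ) ^ p ^ k = 1 := by
      rw [← map_pow, hjk, map_one]
    have hKp : IsPGroup p (Subgroup.zpowers (MulAut.congr e₀ γ)) := by
      obtain ⟨l, -, hl⟩ := (Nat.dvd_prime_pow hp).1 (orderOf_dvd_of_pow_eq_one hδpow)
      exact IsPGroup.of_card (n := l) (by rw [Nat.card_zpowers, hl])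
    obtain ⟨β, hβ, hβK⟩ := hR'a.isSylowIn.exists_conj_le hK hKp
    obtain ⟨g, hg, hgβ⟩ := (mem_autInducedBy_iff _).1 (hβK _ (Subgroup.mem_zpowers _))
    -- `χ = β ∘ e₀`
    set χ : normalizerIn S Q ≃* R' := e₀.trans β with hχ
    have hχF : F.IsMor χ.toMonoidHom := ((F.mem_autGroup_iff hR'S β).1 hβ).comp F he₀
    have hχγ : ∀ y : normalizerIn S Q, ((χ (γ y) : R') : Ω) = g * (χ y : R') * g⁻¹ := by
      intro y
      rw [← hgβ (χ y)]
      simp [hχ, MulAut.congr]
    have hconj := isConj_map F hχF hQR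
    set Q' := (Q.subgroupOf (normalizerIn S Q)).map (R'.subtype.comp χ.toMonoidHom) with hQ'
    have hQ'mem : ∀ y : Ω, y ∈ Q' ↔ ∃ x : Q, ((χ (Subgroup.inclusion hQR x) : R') : Ω) = y := by
      intro y
      constructor
      · rintro ⟨z, hz, rfl⟩
        exact ⟨⟨z, Subgroup.mem_subgroupOf.1 hz⟩, rfl⟩
      · rintro ⟨x, rfl⟩
        exact ⟨Subgroup.inclusion hQR x, Subgroup.mem_subgroupOf.2 x.2, rfl⟩
    have hQ'S : Q' ≤ S := hconj.le_right F
    have hfQ' : Finite Q' := finite_of_le hQ'S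
    have hR'N : R' ≤ normalizerIn S Q' := by
      intro r hr
      refine mem_normalizerIn.2 ⟨hR'S hr, mem_normalizer_of_finite (fun y hy => ?_)⟩
      obtain ⟨x, rfl⟩ := (hQ'mem y).1 hy
      obtain ⟨s, hs⟩ := χ.surjective ⟨r, hr⟩
      have hsx : (s : Ω) * x * (s : Ω)⁻¹ ∈ Q := conj_mem_of_normalizer (mem_normalizerIn.1 s.2).2 x.2
      refine (hQ'mem _).2 ⟨⟨_, hsx⟩, ?_⟩
      have h1 : Subgroup.inclusion hQR ⟨(s : Ω) * x * (s : Ω)⁻¹, hsx⟩ = s * Subgroup.inclusion hQR x * s⁻¹ :=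
        Subtype.ext rfl
      rw [h1, map_mul, map_mul, map_inv, hs]
      rfl
    have hNeq : R' = normalizerIn S Q' := by
      have : Finite (normalizerIn S Q') := finite_of_le normalizerIn_le
      refine Subgroup.eq_of_le_of_card_ge hR'N ?_
      rw [← hcR']
      exact hQ.2 Q' hconj
    have hgR' : g ∈ R' := by
      rw [hNeq]
      refine mem_normalizerIn.2 ⟨hg, mem_normalizer_of_finite (fun y hy => ?_)⟩
      obtain ⟨x, rfl⟩ := (hQ'mem y).1 hy
      rw [← hχγ, hγα]
      exact (hQ'mem _).2 ⟨α x, rfl⟩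
    -- pull back
    rw [mem_autInducedBy_iff]
    refine ⟨(χ.symm ⟨g, hgR'⟩ : normalizerIn S Q), hRS (χ.symm ⟨g, hgR'⟩).2, fun x => ?_⟩
    have h1 : χ (γ (Subgroup.inclusion hQR x)) =
        χ (χ.symm ⟨g, hgR'⟩ * Subgroup.inclusion hQR x * (χ.symm ⟨g, hgR'⟩)⁻¹) := by
      apply Subtype.ext
      rw [hχγ, map_mul, map_mul, map_inv, MulEquiv.apply_symm_apply]
      rfl
    have h2 := χ.injective h1
    rw [hγα] at h2
    exact congrArg Subtype.val h2

/-- S5111. -/
theorem isSaturated_iff_receptive (F : FusionSystem S) [Finite S] {p : ℕ} [Fact p.Prime]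
    (hS : IsPGroup p S) : F.IsSaturated p ↔
      (F.IsFullyAutomized p S ∧ ∀ P : Subgroup Ω, F.IsFullyNormalized P → F.IsReceptive P) := by
  constructor
  · intro hF
    exact ⟨(hF.fullyNormalized F hS F.isFullyNormalized_self).2.1,
      fun P hP => (hF.fullyNormalized F hS hP).2.2⟩
  · rintro ⟨hSa, hrec⟩ P hP
    obtain ⟨Q, hPQ, hQ⟩ := F.exists_fullyNormalized_conj hP
    exact ⟨Q, hPQ, F.fullyAutomized_of_receptive hS hSa hrec _ Q rfl hQ, hrec Q hQ⟩

end FusionSystem
end Cfsg
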