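import Cfsg.Agent.Fus.Model

/-!
Rigidity of models: an automorphism of a strictly `p`-constrained group fixing a Sylow `p`-subgroup elementwise is
conjugation by a central element of that Sylow subgroup.
-/

set_option autoImplicit false

namespace Cfsg
namespace Agent
namespace Fus

theorem aut_eq_conj_of_fix_sylow {G : Type*} [Group G] [Finite G] {p : ℕ} [Fact p.Prime] (T : Sylow p G)
    (hC : Subgroup.centralizer ((pCore p G : Subgroup G) : Set G) ≤ pCore p G) (ψ : G ≃* G)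
    (hψ : ∀ x ∈ (T : Subgroup G), ψ x = x) :
    ∃ z ∈ (T : Subgroup G), (∀ x ∈ (T : Subgroup G), z * x = x * z) ∧ ∀ g, ψ g = z * g * z⁻¹ := by
  classical
  have hQn : (pCore p G).Normal := pCore_normal' p G
  have hQT : pCore p G ≤ T := pCore_le_sylow T
  have hAn : (Subgroup.centralizer ((pCore p G : Subgroup G) : Set G)).Normal := Subgroup.normal_centralizer
  have hcomm : ∀ a b : Subgroup.centralizer ((pCore p G : Subgroup G) : Set G), a * b = b * a := by
    intro a b
    apply Subtype.ext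
    exact (Subgroup.mem_centralizer_iff.1 b.2 a (hC a.2))
  let _ : CommGroup (Subgroup.centralizer ((pCore p G : Subgroup G) : Set G)) :=
    { (inferInstance : Group (Subgroup.centralizer ((pCore p G : Subgroup G) : Set G))) with mul_comm := hcomm }
  have htmem : ∀ g : G, ψ g * g⁻¹ ∈ Subgroup.centralizer ((pCore p G : Subgroup G) : Set G) := by
    intro g
    rw [Subgroup.mem_centralizer_iff]
    intro x hx
    have hy : g⁻¹ * x * g⁻¹⁻¹ ∈ pCore p G := hQn.conj_mem x hx g⁻¹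
    have h1 : ψ (g⁻¹ * x * g⁻¹⁻¹) = g⁻¹ * x * g⁻¹⁻¹ := hψ _ (hQT hy)
    have h2 : ψ x = x := hψ _ (hQT hx)
    have h3 : ψ x = ψ g * ψ (g⁻¹ * x * g⁻¹⁻¹) * (ψ g)⁻¹ := by
      rw [← map_inv, ← map_mul, ← map_mul]; congr 1; group
    rw [h1, h2] at h3
    calc x * (ψ g * g⁻¹) = (ψ g * (g⁻¹ * x * g⁻¹⁻¹) * (ψ g)⁻¹) * (ψ g * g⁻¹) := by rw [← h3]
      _ = ψ g * g⁻¹ * x := by group
  set tA : G → Subgroup.centralizer ((pCore p G : Subgroup G) : Set G) := fun g => ⟨ψ g * g⁻¹, htmem g⟩ with htA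
  have hcoc : ∀ g h : G, tA (g * h) = tA g * MulAut.conjNormal g (tA h) := by
    intro g h
    apply Subtype.ext
    show ψ (g * h) * (g * h)⁻¹ = ψ g * g⁻¹ * (g * (ψ h * h⁻¹) * g⁻¹)
    rw [map_mul]; group
  have htT : ∀ s ∈ (T : Subgroup G), tA s = 1 := by
    intro s hs
    apply Subtype.ext
    show ψ s * s⁻¹ = 1
    rw [hψ s hs, mul_inv_cancel]
  have hcoset : ∀ (g : G) (s : (T : Subgroup G)), tA (g * s) = tA g := by
    intro g s
    rw [hcoc, htT s s.2, map_one, mul_one]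
  have : Fintype (G ⧸ (T : Subgroup G)) := Fintype.ofFinite _
  set w := ∏ c : G ⧸ (T : Subgroup G), tA c.out with hw
  have key : ∀ (h : G) (c : G ⧸ (T : Subgroup G)),
      MulAut.conjNormal h (tA c.out) = (tA h)⁻¹ * tA (h • c).out := by
    intro h c
    have h1 : h • c = QuotientGroup.mk (h * c.out) := by
      conv_lhs => rw [← QuotientGroup.out_eq' c]
      rfl
    obtain ⟨s, hs⟩ := QuotientGroup.mk_out_eq_mul (T : Subgroup G) (h * c.out)
    rw [h1, hs, hcoset, hcoc, inv_mul_cancel_left]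
  have hsum : ∀ h : G, MulAut.conjNormal h w = (tA h)⁻¹ ^ (T : Subgroup G).index * w := by
    intro h
    rw [hw, map_prod]
    simp only [key, Finset.prod_mul_distrib, Finset.prod_const, Finset.card_univ]
    congr 1
    · rw [Subgroup.index_eq_card, Nat.card_eq_fintype_card]
    · exact Equiv.prod_comp (MulAction.toPerm h) (fun c : G ⧸ (T : Subgroup G) => tA c.out)
  have hAp : IsPGroup p (Subgroup.centralizer ((pCore p G : Subgroup G) : Set G)) := T.2.to_le (hC.trans hQT)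
  have hcop : (Nat.card (Subgroup.centralizer ((pCore p G : Subgroup G) : Set G))).Coprime
      (T : Subgroup G).index := by
    obtain ⟨k, hk⟩ := IsPGroup.iff_card.1 hAp
    rw [hk]
    exact Nat.Coprime.pow_left k ((Nat.Prime.coprime_iff_not_dvd Fact.out).2 T.not_dvd_index)
  obtain ⟨z, hz⟩ := (powCoprime hcop).surjective w
  have hz' : z ^ (T : Subgroup G).index = w := hz
  have hform : ∀ h : G, tA h = z * (MulAut.conjNormal h z)⁻¹ := by
    intro h
    apply (powCoprime hcop).injective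
    show tA h ^ (T : Subgroup G).index = (z * (MulAut.conjNormal h z)⁻¹) ^ (T : Subgroup G).index
    rw [mul_pow, inv_pow, ← map_pow, hz', hsum, inv_pow]
    rw [mul_inv, inv_inv, mul_comm w, mul_assoc, inv_mul_cancel, mul_one]
  have hconj : ∀ g : G, ψ g = z * g * (z : G)⁻¹ := by
    intro g
    have h1 := congrArg (fun a : Subgroup.centralizer ((pCore p G : Subgroup G) : Set G) => (a : G)) (hform g)
    have h2 : ψ g * g⁻¹ = z * (g * z * g⁻¹)⁻¹ := h1
    calc ψ g = ψ g * g⁻¹ * g := by group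
      _ = z * (g * z * g⁻¹)⁻¹ * g := by rw [h2]
      _ = z * g * (z : G)⁻¹ := by group
  refine ⟨z, hQT (hC z.2), fun x hx => ?_, hconj⟩
  have h3 := hconj x
  rw [hψ x hx] at h3
  calc (z : G) * x = z * x * (z : G)⁻¹ * z := by group
    _ = x * z := by rw [← h3]

end Fus
end Agent

namespace FusionSystem

open Cfsg.Agent.Fus

variable {Ω : Type*} [Group Ω] {S : Subgroup Ω} {G : Type*} [Group G]

/-- S5105. -/
theorem IsModel.rigid {F : FusionSystem S} {p : ℕ} [Fact p.Prime] {ι : S →* G} (hG : F.IsModel p G ι)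
    (ψ : G ≃* G) (hψ : ∀ x : S, ψ (ι x) = ι x) :
    ∃ z : S, z ∈ Subgroup.center S ∧ ∀ g : G, ψ g = ι z * g * (ι z)⁻¹ := by
  obtain ⟨hfin, hF, ⟨T, hT⟩, hC⟩ := hG
  obtain ⟨z, hzT, hzc, hz⟩ := aut_eq_conj_of_fix_sylow T hC ψ (by
    intro x hx
    rw [hT] at hx
    obtain ⟨s, rfl⟩ := hx
    exact hψ s)
  rw [hT] at hzT
  obtain ⟨z₀, rfl⟩ := hzT
  refine ⟨z₀, ?_, hz⟩
  rw [Subgroup.mem_center_iff]
  intro s
  apply hF.1
  rw [map_mul, map_mul]
  exact (hzc (ι s) (by rw [hT]; exact ⟨s, rfl⟩)).symm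

end FusionSystem
end Cfsg
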